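import Cfsg.Agent.BX.Sieve.All
import Cfsg.Agent.BMx.Base

/-!
# The sieve, unconditionally (helper10, for S5527)
-/

set_option autoImplicit false
set_option linter.all false

namespace Cfsg.Agent.BX.Sieve

/-- the consequences of the classification used for S5527 -/
theorem sieve : Max.Sieve := sieve_of BMx.engBase

end Cfsg.Agent.BX.Sieve
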