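import Cfsg.Agent.BX.Sieve.Ords
import Cfsg.Agent.BX.P11.Fields
import Cfsg.Agent.BX.Sv.Fields
import Cfsg.Agent.BX.M11.Fields

/-!
# `BX.Max.Sieve` from the classification and the table of orders (helper10, for S5527)
-/

set_option autoImplicit false
set_option linter.all false

namespace Cfsg.Agent.BX.Sieve

/-- all fields of the sieve, from the two inputs -/
theorem sieve_of (B : H940.Eng.Base) : Max.Sieve where
  ords := ords B
  th := Sv.th B
  m23 := P11.m23 B
  u52 := P11.u52 B
  u62 := M11.u62 B
  m22 := M11.m22 B

end Cfsg.Agent.BX.Sieve
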